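import Cfsg.Agent.H42.Co1K
import Cfsg.Agent.H81.Four
import Cfsg.Agent.H49.Large

/-! Running through small `p`-subgroups of `Co₁` given by polycyclic generating sequences. -/

set_option autoImplicit false

namespace Cfsg.Agent.H42.Co1K

open Cfsg Subgroup Pointwise
open Cfsg.Agent.H48 (Ok mulG oneG nthG)
open Cfsg.Agent.H46 (andB andB_iff notB notB_iff)

theorem cl_nil : cl [] = ⊥ := by simp [cl]

theorem cl_cons (g : ℕ) (l : List ℕ) : cl (g :: l) = cl l ⊔ zpowers (q g) := by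
  rw [cl, cl, zpowers_eq_closure, ← Subgroup.closure_union]
  congr 1
  ext x
  simp only [List.mem_cons, Set.mem_image, Set.mem_setOf_eq, Set.mem_union, Set.mem_singleton_iff]
  constructor
  · rintro ⟨a, rfl | ha, rfl⟩
    exacts [Or.inr rfl, Or.inl ⟨a, ha, rfl⟩]
  · rintro (⟨a, ha, rfl⟩ | rfl)
    exacts [⟨a, Or.inr ha, rfl⟩, ⟨g, Or.inl rfl, rfl⟩]

/-- The test `P` holds for all products of powers of the members of the list, times `a`. -/
noncomputable def allP (p : ℕ) (P : ℕ → Bool) (l : List ℕ) : ℕ → Bool :=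
  List.rec (fun a => P a)
    (fun g _ ih a => allB (fun m => force (mulG (ops.pow g m) a) ih) p) l

/-- One step of a polycyclic sequence. -/
noncomputable def stepB (p g : ℕ) (l : List ℕ) (W : List (List ℕ)) : Bool :=
  andB (ops.eqB (ops.pow g p) oneG) (andB
    (allB (fun i => ops.eqB (mulG g (nthG l i)) (mulG (ops.word (nthG l) (W.getD i [])) g)) l.length)
    (allP p (fun c => notB (ops.eqB c g)) l oneG))

/-- The list is a polycyclic generating sequence of a `p`-group. -/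
structure Tw (p : ℕ) (l : List ℕ) : Prop where
  ok : OkL l
  card : Nat.card (cl l) = p ^ l.length
  all : ∀ {P : ℕ → Bool} {a : ℕ} {x : Spor.Co1}, cod.R a x → allP p P l a = true →
    ∀ h ∈ cl l, ∃ c, cod.R c (h * x) ∧ P c = true

theorem Tw.nil (p : ℕ) : Tw p [] :=
  ⟨OkL.nil, by rw [cl_nil]; simp, fun {_ a _} ha h y hy => by
    rw [cl_nil, mem_bot] at hy
    exact ⟨a, by rwa [hy, one_mul], h⟩⟩

theorem Tw.all_one {p : ℕ} {l : List ℕ} (h : Tw p l) {P : ℕ → Bool} (e : allP p P l oneG = true)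
    {x : Spor.Co1} (hx : x ∈ cl l) : ∃ c, cod.R c x ∧ P c = true := by
  simpa only [mul_one] using h.all cod.R_one e x hx

theorem Tw.cons {p : ℕ} [hp : Fact p.Prime] {l : List ℕ} (h : Tw p l) {g : ℕ} (hg : Ok g)
    (W : List (List ℕ)) (e : stepB p g l W = true) : Tw p (g :: l) := by
  obtain ⟨e1, e⟩ := andB_iff.1 e
  obtain ⟨e2, e3⟩ := andB_iff.1 e
  have h1 : q g ^ p = 1 := (cod.pow_eq_one_iff (R_q hg) p).1 e1
  have h2 : q g ∈ normalizer (cl l : Set Spor.Co1) := H49.mem_normalizer_of_conj_mem fun x hx =>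
    cl_le (K := (cl l).comap (MulAut.conj (q g)).toMonoidHom) (fun i hi => by
      have := cod.eq_of_eqB (cod.R_mul (R_q hg) (R_q (h.ok.nth i)))
        (cod.R_mul (R_wv h.ok _) (R_q hg)) (of_allB e2 hi)
      rw [mem_comap, MulEquiv.coe_toMonoidHom, MulAut.conj_apply, gen, this, mul_inv_cancel_right]
      exact wv_mem_cl _ _) hx
  have h3 : q g ∉ cl l := fun hm => by
    obtain ⟨c, hc, k⟩ := h.all_one e3 hm
    exact cod.ne_of_eqB hc (R_q hg) (notB_iff.1 k) rfl
  refine ⟨OkL.cons hg h.ok, ?_, fun {P a x} ha k y hy => ?_⟩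
  · rw [cl_cons, H81.card_sup_zpowers h1 h3 h2, h.card, List.length_cons, pow_succ']
  · rw [cl_cons, ← SetLike.mem_coe, coe_mul_of_right_le_normalizer_left _ _ (zpowers_le.2 h2)] at hy
    obtain ⟨u, hu, v, hv, rfl⟩ := hy
    obtain ⟨m, rfl⟩ := (mem_powers_iff_mem_zpowers (x := q g) (y := v)).2 hv
    have := of_allB k (Nat.mod_lt m hp.out.pos)
    rw [force_eq] at this
    obtain ⟨c, hc, k⟩ := h.all (cod.R_mul (cod.R_pow (R_q hg) _) ha) this u hu
    refine ⟨c, ?_, k⟩
    rwa [← pow_eq_pow_mod m h1, ← mul_assoc] at hc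

end Cfsg.Agent.H42.Co1K
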