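import Cfsg.Agent.H42.Co1K
import Cfsg.Agent.H42.CoQ
import Cfsg.Agent.H58.Conj

/-! Counting conjugates under the extraspecial subgroup of `Co₁`. -/

set_option autoImplicit false

namespace Cfsg.Agent.H42.Co1K

open Cfsg Subgroup
open Cfsg.Agent.H48 (Ok mulG invG monoG)
open Cfsg.Agent.H48.Rec (Q0 cQ pQ cjG)
open Cfsg.Agent.H46 (andB andB_iff)

/-- The number of new values of `f` on a list. -/
noncomputable def cntK {α : Type} (f : α → ℕ) (l : List α) : List ℕ → ℕ :=
  List.rec (fun _ => 0)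
    (fun u _ ih acc => force (f u) fun k => iteB (memL k acc) (ih acc) (Nat.succ (ih (k :: acc)))) l

theorem cntK_cons {α : Type} (f : α → ℕ) (u : α) (l : List α) (acc : List ℕ) :
    cntK f (u :: l) acc =
      if memL (f u) acc = true then cntK f l acc else cntK f l (f u :: acc) + 1 := by
  rw [← iteB_eq]
  exact force_eq (f u) fun k => iteB (memL k acc) (cntK f l acc) (Nat.succ (cntK f l (k :: acc)))

theorem cntK_le {α : Type} {T : Set Spor.Co1} (f : α → ℕ) (l : List α)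
    (hf : ∀ u ∈ l, ∃ y ∈ T, cod.R (f u) y) (acc : List ℕ) (Y : Set Spor.Co1) (hT : Y ⊆ T)
    (hY : ∀ y ∈ Y, ∃ a, cod.R a y ∧ key a ∈ acc) :
    Y.ncard + cntK (fun u => key (f u)) l acc ≤ T.ncard := by
  induction l generalizing acc Y with
  | nil => exact Set.ncard_le_ncard hT
  | cons u l ih =>
    obtain ⟨⟨y, hy, hu⟩, hf⟩ := List.forall_mem_cons.1 hf
    rw [cntK_cons]
    split_ifs with h
    · exact ih hf acc Y hT hY
    · have h1 : y ∉ Y := fun e => by
        obtain ⟨a, ha, k⟩ := hY y e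
        exact h (memL_iff.2 ((show key a = key (f u) from (cod.key_iff ha hu).2 rfl) ▸ k))
      have := ih hf (key (f u) :: acc) (insert y Y) (Set.insert_subset hy hT) (by
        rintro z (rfl | hz)
        · exact ⟨_, hu, List.mem_cons_self⟩
        · exact (hY z hz).imp fun a k => ⟨k.1, List.mem_cons_of_mem _ k.2⟩)
      rw [Set.ncard_insert_of_notMem h1] at this
      omega

/-- The conjugates of `x` under `Q`. -/
def cjs {G : Type*} [Group G] (Q : Subgroup G) (x : G) : Set G := {y | ∃ u ∈ Q, u * x * u⁻¹ = y}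

theorem cjs_le_comm {G : Type*} [Group G] [Finite G] {Q X : Subgroup G} {x : G} (hx : x ∈ X) :
    (cjs Q x).ncard ≤ Nat.card (⁅Q, X⁆ : Subgroup G) :=
  Set.ncard_le_ncard_of_injOn (t := ((⁅Q, X⁆ : Subgroup G) : Set G)) (· * x⁻¹)
    (by rintro _ ⟨u, hu, rfl⟩; exact commutator_mem_commutator hu hx)
    fun _ _ _ _ e => mul_right_cancel e

theorem cjs_mul {G : Type*} [Group G] [Finite G] (Q : Subgroup G) (x : G) :
    (cjs Q x).ncard * Nat.card (Q ⊓ centralizer {x} : Subgroup G) ≤ Nat.card Q := by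
  rw [← Nat.card_coe_set_eq, ← Nat.card_prod]
  have : ∀ y : cjs Q x, ∃ u ∈ Q, u * x * u⁻¹ = y := fun y => y.2
  choose u hu e using this
  refine Nat.card_le_card_of_injective (fun p => (⟨u p.1 * p.2, mul_mem (hu _) p.2.2.1⟩ : Q)) ?_
  rintro ⟨y, c⟩ ⟨y', c'⟩ h
  have h : u y * c = u y' * c' := congrArg Subtype.val h
  have k : ∀ (y : cjs Q x) (c : (Q ⊓ centralizer {x} : Subgroup G)),
      u y * c * x * (u y * c)⁻¹ = y := fun y c => by
    rw [← e y, mul_assoc (u y), mem_centralizer_singleton_iff.1 c.2.2]; group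
  obtain rfl : y = y' := Subtype.ext (by rw [← k y c, h, k])
  rw [Subtype.ext (mul_left_cancel h : (c : G) = c')]

theorem R_cj {g c : ℕ} (hg : Ok g) {x : Spor.Co1} (h : cod.R c x) :
    cod.R (cjG g c) (q g * x * (q g)⁻¹) :=
  ⟨hg.cj h.1, by rw [← h.2]; exact H48.Rec.E1_cj hg h.1⟩

/-- The number of conjugates of `c` under a list of elements of `Q0`. -/
noncomputable def cntQ (U : List (ℕ × ℕ)) (c : ℕ) : ℕ :=
  cntK (fun u : ℕ × ℕ => key (force (monoG u.1 u.2) fun g => cjG g c)) U []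

theorem cntQ_le {U : List (ℕ × ℕ)} (hU : allL (fun u => andB (memL u.1 cQ) (memL u.2 pQ)) U = true)
    {c : ℕ} {x : Spor.Co1} (h : cod.R c x) : cntQ U c ≤ (cjs Q0 x).ncard := by
  have := cntK_le (T := cjs Q0 x) (fun u : ℕ × ℕ => force (monoG u.1 u.2) fun g => cjG g c) U
    (fun u hu => by
      obtain ⟨h1, h2⟩ := andB_iff.1 (allL_iff.1 hU u hu)
      rw [memL_iff] at h1 h2
      rw [force_eq]
      exact ⟨_, ⟨q (monoG u.1 u.2), mem_map_of_mem _ (H48.Rec.mem_Qt_of h1 h2), rfl⟩,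
        R_cj (H48.Rec.ok_Q h1 h2) h⟩) [] ∅ (Set.empty_subset _) (by simp)
  rwa [Set.ncard_empty, zero_add] at this

theorem cjs_conj {G : Type*} [Group G] {Q : Subgroup G} {k : G}
    (hk : k ∈ normalizer (Q : Set G)) (x : G) : (cjs Q (k * x * k⁻¹)).ncard = (cjs Q x).ncard := by
  rw [← Set.ncard_image_of_injective (cjs Q x) (MulAut.conj k).injective]
  congr 1
  ext y
  constructor
  · rintro ⟨u, hu, rfl⟩
    exact ⟨_, ⟨_, H49.conj_mem_of_mem_normalizer (inv_mem hk) hu, rfl⟩, by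
      rw [MulAut.conj_apply]; group⟩
  · rintro ⟨_, ⟨u, hu, rfl⟩, rfl⟩
    exact ⟨_, H49.conj_mem_of_mem_normalizer hk hu, by rw [MulAut.conj_apply]; group⟩

/-- Transport of the hypothesis to the model. -/
theorem map_eq_Q0 {G : Type*} [Group G] [Finite G] {Q : Subgroup G} {z : G} (h : H48.Rec.CH Q z)
    (e : G ≃* Spor.Co1) (hz : e z = H48.Rec.z0) : Q.map e.toMonoidHom = Q0 := by
  have h1 : H48.Rec.CH (Q.map e.toMonoidHom) H48.Rec.z0 :=
    ⟨hz ▸ h.toLX.map_equiv e, (card_map_of_injective e.injective).trans h.cardQ, H48.Rec.card_C0⟩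
  obtain ⟨_, h2, -⟩ := h1.hyp
  obtain ⟨_, h3, -⟩ := H48.Rec.ch0.hyp
  have := subgroupOf_inj.1 (h2.symm.trans h3)
  rwa [inf_eq_left.2 h1.le_centralizer, inf_eq_left.2 H48.Rec.ch0.le_centralizer] at this

end Cfsg.Agent.H42.Co1K
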