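import Cfsg.Agent.H42.Idx2

/-!
# Subgroups of small index in `M23` and `M24`
-/

set_option autoImplicit false
set_option maxRecDepth 1000000

open Cfsg MulAction
open scoped Pointwise

namespace Cfsg.Agent.H42

theorem exists_smul_pt_set {p p' : GolayPt} {s s' : Finset GolayPt} (hp : p ∉ s) (hp' : p' ∉ s')
    (h : s.card = s'.card) (h4 : s.card ≤ 4) : ∃ g : M24, g • p = p' ∧ g • s = s' := by
  obtain ⟨x, hx, e⟩ := exists_enum s rfl
  obtain ⟨y, hy, e'⟩ := exists_enum s' h.symm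
  obtain ⟨g, hg⟩ := exists_smul_fun (k := s.card + 1) (by omega) (Fin.cons p x) (Fin.cons p' y)
    (Fin.cons_injective_iff.mpr ⟨fun ⟨i, h⟩ => hp ((e p).mpr ⟨i, h⟩), hx⟩)
    (Fin.cons_injective_iff.mpr ⟨fun ⟨i, h⟩ => hp' ((e' p').mpr ⟨i, h⟩), hy⟩)
  exact ⟨g, hg 0, smul_eq_of_enum e e' fun i => hg i.succ⟩

theorem pt23_notMem {n : ℕ} (h : tb n 23 = false) : pt 23 ∉ toSet n := by
  rw [pt_mem_toSet (by norm_num), h]
  decide

theorem le_stab_pt_of_card_one {H : Subgroup M24} {s : Finset GolayPt} (h : s.card = 1)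
    (hH : H ≤ stabilizer M24 s) : ∃ q ∈ s, H ≤ stabilizer M24 q := by
  obtain ⟨q, rfl⟩ := Finset.card_eq_one.mp h
  exact ⟨q, Finset.mem_singleton_self q, by rwa [stabilizer_finset_singleton] at hH⟩

theorem G23_le_stab : G23 ≤ stabilizer M24 (toSet (Nat.pow 2 23)) := by
  rw [toSet_pow (by norm_num), stabilizer_finset_singleton]

theorem top_le_stab : (⊤ : Subgroup M24) ≤ stabilizer M24 (toSet 0) := fun g _ => by
  rw [toSet_zero]
  exact Finset.smul_finset_empty g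

/-- Generators of the stabiliser of a point and a triad. -/
def gensK1 : List ℕ := [963340191402299574783533378369552418, 976743226840891189229538772525483010]

theorem gensK1_chk : genChk gensK1
    [[3, 0],
    [1, 1, 1, 2, 4],
    [3, 0, 2, 2, 0, 3, 3],
    [4, 1, 8, 4, 8],
    [0, 7, 10, 2, 10],
    [5, 3, 0, 6, 2, 4],
    [14, 10, 5, 6, 0, 2],
    [12, 12, 10, 2, 4],
    [4, 9, 4, 6, 4],
    [8, 6]]
    [(0, [961201939497990642893046858329423906]),
    (3, [967775751955048358589096069482874912]),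
    (4, [982003467106548879744833006639088704]),
    (5, [972606645568131968584696805283956768]),
    (1, [976990105829392847739289005721748544])] 5760 = true := by decide +kernel

/-- Generators of the stabiliser of a point and a duad. -/
def gensK2 : List ℕ := [975145783914951615425768869004981249, 972932192948950439896826347168409632]

theorem gensK2_chk : genChk gensK2
    [[0, 0],
    [0, 5, 0, 5, 0, 5, 1, 4, 1],
    [7, 5, 0, 4],
    [8, 3, 8, 8, 3, 8],
    [5, 3, 1, 11, 1, 2, 6, 6],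
    [5, 3, 7, 3, 6, 12, 3, 8, 4, 13],
    [12, 15, 6, 9, 4, 1],
    [11, 16, 10, 8, 10, 2, 6],
    [8, 12, 8, 5, 10, 5],
    [6, 10, 7],
    [9, 10, 8]]
    [(0, [961330541574669763151575178273955841]),
    (2, [967311549896661243205909941279142944]),
    (3, [971665801268534733629479418978404384]),
    (4, [981818691054096003685363657089320992, 971592882964418941354553515258775584]),
    (5, [972606645568131968584696805283956768])] 40320 = true := by decide +kernel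

theorem inM_gensK1 : ∀ g ∈ gensK1, inM g = true := genChk_inM gensK1_chk

theorem inM_gensK2 : ∀ g ∈ gensK2, inM g = true := genChk_inM gensK2_chk

/-- The stabiliser of a point and a triad. -/
noncomputable abbrev GK1 : Subgroup M24 := G23 ⊓ stabilizer M24 (toSet 7)

/-- The stabiliser of a point and a duad. -/
noncomputable abbrev GK2 : Subgroup M24 := G23 ⊓ stabilizer M24 (toSet 3)

theorem card_GK1 : Nat.card GK1 = 5760 :=
  encSet.card_inf_stabilizer_eq (gens := gens23) (x0 := 7) inM_gens23 G23 G23_eq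
    (show _ < 2 ^ 24 by norm_num) 1800 (n := 1771) (by norm_num) (orbSize_set (by decide +kernel))
    (by rw [card_G23])

theorem card_GK2 : Nat.card GK2 = 40320 :=
  encSet.card_inf_stabilizer_eq (gens := gens23) (x0 := 3) inM_gens23 G23 G23_eq
    (show _ < 2 ^ 24 by norm_num) 300 (n := 253) (by norm_num) (orbSize_set (by decide +kernel))
    (by rw [card_G23])

theorem gensK1_mem : ∀ g ∈ gensK1, toM g ∈ GK1 := fun g h =>
  ⟨allL_fix_pt inM_gensK1 (i := 23) (by norm_num) (by decide +kernel) g h,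
    allL_fix_set inM_gensK1 (by norm_num) (by decide +kernel) g h⟩

theorem gensK2_mem : ∀ g ∈ gensK2, toM g ∈ GK2 := fun g h =>
  ⟨allL_fix_pt inM_gensK2 (i := 23) (by norm_num) (by decide +kernel) g h,
    allL_fix_set inM_gensK2 (by norm_num) (by decide +kernel) g h⟩

theorem GK1_eq : GK1 = gen gensK1 := (eq_gen_of_genChk gensK1_chk _ gensK1_mem card_GK1.le).1

theorem GK2_eq : GK2 = gen gensK2 := (eq_gen_of_genChk gensK2_chk _ gensK2_mem card_GK2.le).1

theorem exists_smul_pt_duad {p : GolayPt} {s : Finset GolayPt} (hp : p ∉ s) (h : s.card = 2) :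
    ∃ g : M24, g • pt 23 = p ∧ g • toSet 3 = s :=
  have h1 : (toSet 3).card = 2 := by rw [card_toSet (by norm_num)]; decide +kernel
  exists_smul_pt_set (pt23_notMem (by decide +kernel)) hp (h1.trans h.symm) (by omega)

theorem exists_smul_pt_triad {p : GolayPt} {s : Finset GolayPt} (hp : p ∉ s) (h : s.card = 3) :
    ∃ g : M24, g • pt 23 = p ∧ g • toSet 7 = s :=
  have h1 : (toSet 7).card = 3 := by rw [card_toSet (by norm_num)]; decide +kernel
  exists_smul_pt_set (pt23_notMem (by decide +kernel)) hp (h1.trans h.symm) (by omega)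

theorem card_pt_duad {p : GolayPt} {s : Finset GolayPt} (hp : p ∉ s) (h : s.card = 2) :
    Nat.card ↥(stabilizer M24 p ⊓ stabilizer M24 s) = 40320 := by
  obtain ⟨a, rfl, rfl⟩ := exists_smul_pt_duad hp h
  exact (card_eq_of_conj a GK2 _ (conj_mem_stab2 a _ _)).trans card_GK2

theorem card_pt_heptad {p : GolayPt} {o : Finset GolayPt} (ho : o ∈ octads) (hp : p ∈ o) :
    Nat.card ↥(stabilizer M24 p ⊓ stabilizer M24 o) = 40320 := by
  obtain ⟨a, rfl, rfl⟩ := exists_smul_oct0_pt ho hp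
  exact (card_eq_of_conj a Q23_1 _ (conj_mem_stab2 a _ _)).trans card_Q23_1

/-- The kinds of sets stabilised by subgroups of small index of the point stabiliser. -/
def Kind (k : ℕ) (s : Finset GolayPt) : Prop :=
  (pt 23 ∉ s ∧ 1 ≤ s.card ∧ s.card ≤ k) ∨ (pt 23 ∈ s ∧ 5 ≤ s.card ∧ ∃ o ∈ octads, s ⊆ o)

/-- The test for `Kind`. -/
noncomputable def kind (k w : ℕ) : Bool :=
  force (pc w) fun c => Bool.or (Bool.and (!tb w 23) (Bool.and (Nat.ble 1 c) (Nat.ble c k)))
    (Bool.and (tb w 23) (Bool.and (Bool.and (Nat.ble 5 c) (Nat.ble c 8)) (inOct w)))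

theorem kind_spec (k : ℕ) : ∀ w < 2 ^ 24, kind k w = true → Kind k (toSet w) := fun w hw h => by
  simp only [kind, force_eq, Bool.or_eq_true, Bool.and_eq_true, Bool.not_eq_true', ble_iff,
    ← card_toSet hw, inOct_iff hw] at h
  rcases h with h | h
  · exact Or.inl ⟨pt23_notMem h.1, h.2⟩
  · exact Or.inr ⟨(pt_mem_toSet (by norm_num)).mpr h.1, h.2.1.1, h.2.2⟩

theorem kind_smul (k : ℕ) : ∀ g ∈ G23, ∀ s, Kind k s → Kind k (g • s) := fun g hg s h => by
  simp only [Kind, smul_mem_iff_of_fix hg, Finset.card_smul_finset, inOct_smul_iff]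
  exact h

theorem le_stab_octad {s o : Finset GolayPt} (ho : o ∈ octads) (h2 : 5 ≤ s.card) (h3 : s ⊆ o)
    {H : Subgroup M24} (hs : H ≤ stabilizer M24 s) : H ≤ stabilizer M24 o := fun g hg => by
  refine octad_eq_of_card_inter ((msmul_mem_octads_iff g).mpr ho) ho
    (h2.trans (Finset.card_le_card (Finset.subset_inter ?_ h3)))
  rw [← show g • s = s from hs hg, msmul_subset]
  exact h3

theorem Kind.cases {k : ℕ} {s : Finset GolayPt} (h : Kind k s) {H : Subgroup M24} (hH : H ≤ G23)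
    (hs : H ≤ stabilizer M24 s) : (∃ q, pt 23 ≠ q ∧ H ≤ G23 ⊓ stabilizer M24 q) ∨
      (pt 23 ∉ s ∧ 2 ≤ s.card ∧ s.card ≤ k) ∨
      ∃ o ∈ octads, pt 23 ∈ o ∧ H ≤ G23 ⊓ stabilizer M24 o := by
  rcases h with ⟨h1, h2, h3⟩ | ⟨h1, h2, o, ho, h3⟩
  · by_cases h4 : s.card = 1
    · obtain ⟨q, hq, h5⟩ := le_stab_pt_of_card_one h4 hs
      exact Or.inl ⟨q, fun e => h1 (e ▸ hq), le_inf hH h5⟩
    · exact Or.inr (Or.inl ⟨h1, by omega, h3⟩)
  · exact Or.inr (Or.inr ⟨o, ho, h3 h1, le_inf hH (le_stab_octad ho h2 h3 hs)⟩)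

theorem x7_mem_G23 : toM x7 ∈ G23 := x7_mem_G22.1

theorem M23_index_253 {H : Subgroup M24} (hH : H ≤ G23) (hc : Nat.card H = 40320) :
    (∃ s : Finset GolayPt, s.card = 2 ∧ pt 23 ∉ s ∧ H = G23 ⊓ stabilizer M24 s) ∨
      ∃ o ∈ octads, pt 23 ∈ o ∧ H = G23 ⊓ stabilizer M24 o := by
  obtain ⟨s, h1, h2⟩ | h := orb_cases hH inM_gens23 G23_eq card_G23 hc (n := 253) (by norm_num)
    (p := 7) inM_x7 x7_mem_G23 (by decide +kernel) (by norm_num) (by norm_num) (i := 0) (by norm_num)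
    (F := Nat.pow 2 23) (by decide +kernel) G23_le_stab (by decide +kernel) (r := kind 2) (tr := false)
    (bs := [1, 2, 4, 5]) (by decide +kernel) (Kind 2) (kind_spec 2) (kind_smul 2)
  · rcases h1.cases hH h2 with ⟨q, h3, h4⟩ | ⟨h3, h4, h5⟩ | ⟨o, ho, h3, h4⟩
    · obtain ⟨n, h5, h6⟩ := M22_seven h3 h4 (by rw [hc]; norm_num)
      omega
    · exact Or.inl ⟨s, by omega, h3, Subgroup.eq_of_le_of_card_ge (le_inf hH h2)
        (by rw [card_pt_duad h3 (by omega), hc])⟩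
    · exact Or.inr ⟨o, ho, h3, Subgroup.eq_of_le_of_card_ge h4 (by rw [card_pt_heptad ho h3, hc])⟩
  · exact absurd h.1 (by decide)

theorem M23_index_759 {H : Subgroup M24} (hH : H ≤ G23) (hc : Nat.card H = 13440) : False := by
  obtain ⟨s, h1, h2⟩ | h := orb_cases hH inM_gens23 G23_eq card_G23 hc (n := 759) (by norm_num)
    (p := 7) inM_x7 x7_mem_G23 (by decide +kernel) (by norm_num) (by norm_num) (i := 0) (by norm_num)
    (F := Nat.pow 2 23) (by decide +kernel) G23_le_stab (by decide +kernel) (r := kind 2) (tr := false)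
    (bs := [1, 2, 4, 5]) (by decide +kernel) (Kind 2) (kind_spec 2) (kind_smul 2)
  · rcases h1.cases hH h2 with ⟨q, h3, h4⟩ | ⟨h3, h4, h5⟩ | ⟨o, ho, h3, h4⟩
    · obtain ⟨n, h5, h6⟩ := M22_seven h3 h4 (by rw [hc]; norm_num)
      omega
    · obtain ⟨a, e, rfl⟩ := exists_smul_pt_duad h3 (show s.card = 2 by omega)
      have h6 : cj a⁻¹ H ≤ GK2 := cj_inv_le_of_conj (conj_mem_stab2 a _ _)
        (by rw [e]; exact le_inf hH h2)
      have h7 : G21 ≤ GK2 := G21_eq ▸ gen_le _ fun g hg => ⟨(gens21_mem g hg).1.1,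
        allL_fix_set inM_gens21 (by norm_num) (by decide +kernel) g hg⟩
      have h8 : G21 ≤ cj a⁻¹ H := G21_eq ▸ gen_le _ fun g hg => mem_of_index_lt_prime h6 (n := 3)
        (p := 7) (by norm_num) (by norm_num) (by rw [card_cj, hc, card_GK2]) (h7 (gens21_mem g hg))
        ((pow_toM_eq_one_iff (inM_gens21 g hg) 7).mpr (by revert g; decide +kernel))
      have := Subgroup.card_dvd_of_le h8
      rw [card_cj, hc, card_G21] at this
      exact absurd this (by norm_num)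
    · obtain ⟨a, rfl, e⟩ := exists_smul_oct0_pt ho h3
      have h6 : cj a⁻¹ H ≤ Q23_1 := cj_inv_le_of_conj (conj_mem_stab2 a _ _) (by rw [e]; exact h4)
      have h8 : Q23_1 ≤ cj a⁻¹ H := Q23_1_eq ▸ gen_le _ fun g hg => mem_of_index_lt_prime h6 (n := 3)
        (p := 5) (by norm_num) (by norm_num) (by rw [card_cj, hc, card_Q23_1]) (gensQ23_1_mem g hg)
        ((pow_toM_eq_one_iff (inM_gensQ23_1 g hg) 5).mpr (by revert g; decide +kernel))
      have := Subgroup.card_dvd_of_le h8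
      rw [card_cj, hc, card_Q23_1] at this
      exact absurd this (by norm_num)
  · exact absurd h.1 (by decide)

theorem M23_index_276 {H : Subgroup M24} (hH : H ≤ G23) (hc : Nat.card H = 36960) : False := by
  obtain ⟨s, h1, h2⟩ | h := orb_cases hH inM_gens23 G23_eq card_G23 hc (n := 276) (by norm_num)
    (p := 7) inM_x7 x7_mem_G23 (by decide +kernel) (by norm_num) (by norm_num) (i := 0) (by norm_num)
    (F := Nat.pow 2 23) (by decide +kernel) G23_le_stab (by decide +kernel) (r := kind 1) (tr := false)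
    (bs := [1, 2, 4, 5]) (by decide +kernel) (Kind 1) (kind_spec 1) (kind_smul 1)
  · rcases h1.cases hH h2 with ⟨q, h3, h4⟩ | ⟨h3, h4, h5⟩ | ⟨o, ho, h3, h4⟩
    · obtain ⟨n, h5, h6⟩ := M22_seven h3 h4 (by rw [hc]; norm_num)
      omega
    · omega
    · have := Subgroup.card_dvd_of_le h4
      rw [hc, card_pt_heptad ho h3] at this
      exact absurd this (by norm_num)
  · exact absurd h.1 (by decide)

/-- An element of order 5. -/
def x5 : ℕ := 968829483254157921998063682247100529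

theorem inM_x5 : inM x5 = true := by decide +kernel

theorem x5_mem : toM x5 ∈ Q23_1 := mem_of_inQ23_1 _ inM_x5 (by decide +kernel)

theorem heptad_index_7 {H : Subgroup M24} {o : Finset GolayPt} (ho : o ∈ octads) {p : GolayPt}
    (hp : p ∈ o) (hH : H ≤ stabilizer M24 p ⊓ stabilizer M24 o) (hc : Nat.card H = 5760) :
    ∃ q ∈ o, p ≠ q ∧ H ≤ stabilizer M24 q := by
  obtain ⟨a, rfl, rfl⟩ := exists_smul_oct0_pt ho hp
  have h1 : cj a⁻¹ H ≤ Q23_1 := cj_inv_le_of_conj (conj_mem_stab2 a _ _) hH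
  obtain ⟨s, ⟨h2, h3, h4⟩, h5⟩ | h := orb_cases h1 inM_gensQ23_1 Q23_1_eq card_Q23_1
    ((card_cj _ _).trans hc) (n := 7) (by norm_num) (p := 5) inM_x5 x5_mem (by decide +kernel)
    (by norm_num) (by norm_num) (i := 0) (by norm_num)
    (F := Nat.xor (Nat.xor oct0 (Nat.pow 2 23)) 16777215) (by decide +kernel)
    (fun g hg => msmul_xor (msmul_xor hg.2 (G23_le_stab hg.1)) (msmul_full g)) (by decide +kernel)
    (r := fun w => Bool.and (Nat.beq (pc w) 1) (Bool.and (!tb w 23) (Nat.beq (Nat.land w oct0) w)))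
    (tr := false) (bs := [0, 2, 14]) (by decide +kernel)
    (fun s => s.card = 1 ∧ pt 23 ∉ s ∧ s ⊆ toSet oct0) (fun w hw h => by
      simp only [Bool.and_eq_true, beq_iff, Bool.not_eq_true'] at h
      exact ⟨(card_toSet hw).trans h.1, pt23_notMem h.2.1, (toSet_subset_iff _ hw).mpr h.2.2⟩)
    (fun g hg s h => ⟨by rw [Finset.card_smul_finset, h.1], by
      rw [smul_mem_iff_of_fix hg.1]; exact h.2.1, by
      rw [← show g • toSet oct0 = toSet oct0 from hg.2, msmul_subset]; exact h.2.2⟩)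
  · obtain ⟨q, hq, h6⟩ := le_stab_pt_of_card_one h2 h5
    refine ⟨a • q, (msmul_mem_msmul a).mpr (h4 hq), fun e => h3 (MulAction.injective a e ▸ hq), ?_⟩
    simpa using le_stabilizer_of_cj h6
  · exact absurd h.1 (by decide)

theorem M23_index_1771 {H : Subgroup M24} (hH : H ≤ G23) (hc : Nat.card H = 5760) :
    (∃ s : Finset GolayPt, s.card = 3 ∧ pt 23 ∉ s ∧ H ≤ stabilizer M24 s) ∨
      ∃ o ∈ octads, pt 23 ∈ o ∧ H ≤ G23 ⊓ stabilizer M24 o := by
  obtain ⟨s, h1, h2⟩ | h := orb_cases hH inM_gens23 G23_eq card_G23 hc (n := 1771) (by norm_num)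
    (p := 5) inM_x5 x5_mem.1 (by decide +kernel) (by norm_num) (by norm_num) (i := 4) (by norm_num)
    (F := Nat.pow 2 23) (by decide +kernel) G23_le_stab (by decide +kernel)
    (r := fun w => Bool.and (Nat.ble 3 (pc w)) (kind 3 w)) (tr := false)
    (bs := [0, 2, 4, 8, 9, 10, 14]) (by decide +kernel) (fun s => 3 ≤ s.card ∧ Kind 3 s)
    (fun w hw h => ⟨(card_toSet hw).symm ▸ ble_iff.mp (Bool.and_eq_true_iff.mp h).1,
      kind_spec 3 w hw (Bool.and_eq_true_iff.mp h).2⟩)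
    (fun g hg s h => ⟨by rw [Finset.card_smul_finset]; exact h.1, kind_smul 3 g hg s h.2⟩)
  · rcases h1.2 with ⟨h3, -, h4⟩ | ⟨h3, h4, o, ho, h5⟩
    · exact Or.inl ⟨s, h4.antisymm h1.1, h3, h2⟩
    · exact Or.inr ⟨o, ho, h5 h3, le_inf hH (le_stab_octad ho h4 h5 h2)⟩
  · exact absurd h.1 (by decide)

set_option linter.all false in
theorem eqns_Idx3 : True := by
  first | (have := @gensK1.eq_def.{0,0,0,0,0,0}) | (have := @gensK1.eq_def.{0,0,0,0,0}) | (have := @gensK1.eq_def.{0,0,0,0}) | (have := @gensK1.eq_def.{0,0,0}) | (have := @gensK1.eq_def.{0,0}) | (have := @gensK1.eq_def.{0}) | (have := @gensK1.eq_def) | skip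
  first | (have := @gensK1.eq_1.{0,0,0,0,0,0}) | (have := @gensK1.eq_1.{0,0,0,0,0}) | (have := @gensK1.eq_1.{0,0,0,0}) | (have := @gensK1.eq_1.{0,0,0}) | (have := @gensK1.eq_1.{0,0}) | (have := @gensK1.eq_1.{0}) | (have := @gensK1.eq_1) | skip
  first | (have := @gensK1.eq_2.{0,0,0,0,0,0}) | (have := @gensK1.eq_2.{0,0,0,0,0}) | (have := @gensK1.eq_2.{0,0,0,0}) | (have := @gensK1.eq_2.{0,0,0}) | (have := @gensK1.eq_2.{0,0}) | (have := @gensK1.eq_2.{0}) | (have := @gensK1.eq_2) | skip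
  first | (have := @gensK1.eq_3.{0,0,0,0,0,0}) | (have := @gensK1.eq_3.{0,0,0,0,0}) | (have := @gensK1.eq_3.{0,0,0,0}) | (have := @gensK1.eq_3.{0,0,0}) | (have := @gensK1.eq_3.{0,0}) | (have := @gensK1.eq_3.{0}) | (have := @gensK1.eq_3) | skip
  first | (have := @gensK1.eq_unfold.{0,0,0,0,0,0}) | (have := @gensK1.eq_unfold.{0,0,0,0,0}) | (have := @gensK1.eq_unfold.{0,0,0,0}) | (have := @gensK1.eq_unfold.{0,0,0}) | (have := @gensK1.eq_unfold.{0,0}) | (have := @gensK1.eq_unfold.{0}) | (have := @gensK1.eq_unfold) | skip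
  first | (have := @gensK1.congr_simp.{0,0,0,0,0,0}) | (have := @gensK1.congr_simp.{0,0,0,0,0}) | (have := @gensK1.congr_simp.{0,0,0,0}) | (have := @gensK1.congr_simp.{0,0,0}) | (have := @gensK1.congr_simp.{0,0}) | (have := @gensK1.congr_simp.{0}) | (have := @gensK1.congr_simp) | skip
  first | (have := @gensK2.eq_def.{0,0,0,0,0,0}) | (have := @gensK2.eq_def.{0,0,0,0,0}) | (have := @gensK2.eq_def.{0,0,0,0}) | (have := @gensK2.eq_def.{0,0,0}) | (have := @gensK2.eq_def.{0,0}) | (have := @gensK2.eq_def.{0}) | (have := @gensK2.eq_def) | skip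
  first | (have := @gensK2.eq_1.{0,0,0,0,0,0}) | (have := @gensK2.eq_1.{0,0,0,0,0}) | (have := @gensK2.eq_1.{0,0,0,0}) | (have := @gensK2.eq_1.{0,0,0}) | (have := @gensK2.eq_1.{0,0}) | (have := @gensK2.eq_1.{0}) | (have := @gensK2.eq_1) | skip
  first | (have := @gensK2.eq_2.{0,0,0,0,0,0}) | (have := @gensK2.eq_2.{0,0,0,0,0}) | (have := @gensK2.eq_2.{0,0,0,0}) | (have := @gensK2.eq_2.{0,0,0}) | (have := @gensK2.eq_2.{0,0}) | (have := @gensK2.eq_2.{0}) | (have := @gensK2.eq_2) | skip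
  first | (have := @gensK2.eq_3.{0,0,0,0,0,0}) | (have := @gensK2.eq_3.{0,0,0,0,0}) | (have := @gensK2.eq_3.{0,0,0,0}) | (have := @gensK2.eq_3.{0,0,0}) | (have := @gensK2.eq_3.{0,0}) | (have := @gensK2.eq_3.{0}) | (have := @gensK2.eq_3) | skip
  first | (have := @gensK2.eq_unfold.{0,0,0,0,0,0}) | (have := @gensK2.eq_unfold.{0,0,0,0,0}) | (have := @gensK2.eq_unfold.{0,0,0,0}) | (have := @gensK2.eq_unfold.{0,0,0}) | (have := @gensK2.eq_unfold.{0,0}) | (have := @gensK2.eq_unfold.{0}) | (have := @gensK2.eq_unfold) | skip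
  first | (have := @gensK2.congr_simp.{0,0,0,0,0,0}) | (have := @gensK2.congr_simp.{0,0,0,0,0}) | (have := @gensK2.congr_simp.{0,0,0,0}) | (have := @gensK2.congr_simp.{0,0,0}) | (have := @gensK2.congr_simp.{0,0}) | (have := @gensK2.congr_simp.{0}) | (have := @gensK2.congr_simp) | skip
  first | (have := @GK1.eq_def.{0,0,0,0,0,0}) | (have := @GK1.eq_def.{0,0,0,0,0}) | (have := @GK1.eq_def.{0,0,0,0}) | (have := @GK1.eq_def.{0,0,0}) | (have := @GK1.eq_def.{0,0}) | (have := @GK1.eq_def.{0}) | (have := @GK1.eq_def) | skip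
  first | (have := @GK1.eq_1.{0,0,0,0,0,0}) | (have := @GK1.eq_1.{0,0,0,0,0}) | (have := @GK1.eq_1.{0,0,0,0}) | (have := @GK1.eq_1.{0,0,0}) | (have := @GK1.eq_1.{0,0}) | (have := @GK1.eq_1.{0}) | (have := @GK1.eq_1) | skip
  first | (have := @GK1.eq_2.{0,0,0,0,0,0}) | (have := @GK1.eq_2.{0,0,0,0,0}) | (have := @GK1.eq_2.{0,0,0,0}) | (have := @GK1.eq_2.{0,0,0}) | (have := @GK1.eq_2.{0,0}) | (have := @GK1.eq_2.{0}) | (have := @GK1.eq_2) | skip
  first | (have := @GK1.eq_3.{0,0,0,0,0,0}) | (have := @GK1.eq_3.{0,0,0,0,0}) | (have := @GK1.eq_3.{0,0,0,0}) | (have := @GK1.eq_3.{0,0,0}) | (have := @GK1.eq_3.{0,0}) | (have := @GK1.eq_3.{0}) | (have := @GK1.eq_3) | skip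
  first | (have := @GK1.eq_unfold.{0,0,0,0,0,0}) | (have := @GK1.eq_unfold.{0,0,0,0,0}) | (have := @GK1.eq_unfold.{0,0,0,0}) | (have := @GK1.eq_unfold.{0,0,0}) | (have := @GK1.eq_unfold.{0,0}) | (have := @GK1.eq_unfold.{0}) | (have := @GK1.eq_unfold) | skip
  first | (have := @GK1.congr_simp.{0,0,0,0,0,0}) | (have := @GK1.congr_simp.{0,0,0,0,0}) | (have := @GK1.congr_simp.{0,0,0,0}) | (have := @GK1.congr_simp.{0,0,0}) | (have := @GK1.congr_simp.{0,0}) | (have := @GK1.congr_simp.{0}) | (have := @GK1.congr_simp) | skip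
  first | (have := @GK2.eq_def.{0,0,0,0,0,0}) | (have := @GK2.eq_def.{0,0,0,0,0}) | (have := @GK2.eq_def.{0,0,0,0}) | (have := @GK2.eq_def.{0,0,0}) | (have := @GK2.eq_def.{0,0}) | (have := @GK2.eq_def.{0}) | (have := @GK2.eq_def) | skip
  first | (have := @GK2.eq_1.{0,0,0,0,0,0}) | (have := @GK2.eq_1.{0,0,0,0,0}) | (have := @GK2.eq_1.{0,0,0,0}) | (have := @GK2.eq_1.{0,0,0}) | (have := @GK2.eq_1.{0,0}) | (have := @GK2.eq_1.{0}) | (have := @GK2.eq_1) | skip
  first | (have := @GK2.eq_2.{0,0,0,0,0,0}) | (have := @GK2.eq_2.{0,0,0,0,0}) | (have := @GK2.eq_2.{0,0,0,0}) | (have := @GK2.eq_2.{0,0,0}) | (have := @GK2.eq_2.{0,0}) | (have := @GK2.eq_2.{0}) | (have := @GK2.eq_2) | skip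
  first | (have := @GK2.eq_3.{0,0,0,0,0,0}) | (have := @GK2.eq_3.{0,0,0,0,0}) | (have := @GK2.eq_3.{0,0,0,0}) | (have := @GK2.eq_3.{0,0,0}) | (have := @GK2.eq_3.{0,0}) | (have := @GK2.eq_3.{0}) | (have := @GK2.eq_3) | skip
  first | (have := @GK2.eq_unfold.{0,0,0,0,0,0}) | (have := @GK2.eq_unfold.{0,0,0,0,0}) | (have := @GK2.eq_unfold.{0,0,0,0}) | (have := @GK2.eq_unfold.{0,0,0}) | (have := @GK2.eq_unfold.{0,0}) | (have := @GK2.eq_unfold.{0}) | (have := @GK2.eq_unfold) | skip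
  first | (have := @GK2.congr_simp.{0,0,0,0,0,0}) | (have := @GK2.congr_simp.{0,0,0,0,0}) | (have := @GK2.congr_simp.{0,0,0,0}) | (have := @GK2.congr_simp.{0,0,0}) | (have := @GK2.congr_simp.{0,0}) | (have := @GK2.congr_simp.{0}) | (have := @GK2.congr_simp) | skip
  first | (have := @Kind.eq_def.{0,0,0,0,0,0}) | (have := @Kind.eq_def.{0,0,0,0,0}) | (have := @Kind.eq_def.{0,0,0,0}) | (have := @Kind.eq_def.{0,0,0}) | (have := @Kind.eq_def.{0,0}) | (have := @Kind.eq_def.{0}) | (have := @Kind.eq_def) | skip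
  first | (have := @Kind.eq_1.{0,0,0,0,0,0}) | (have := @Kind.eq_1.{0,0,0,0,0}) | (have := @Kind.eq_1.{0,0,0,0}) | (have := @Kind.eq_1.{0,0,0}) | (have := @Kind.eq_1.{0,0}) | (have := @Kind.eq_1.{0}) | (have := @Kind.eq_1) | skip
  first | (have := @Kind.eq_2.{0,0,0,0,0,0}) | (have := @Kind.eq_2.{0,0,0,0,0}) | (have := @Kind.eq_2.{0,0,0,0}) | (have := @Kind.eq_2.{0,0,0}) | (have := @Kind.eq_2.{0,0}) | (have := @Kind.eq_2.{0}) | (have := @Kind.eq_2) | skip
  first | (have := @Kind.eq_3.{0,0,0,0,0,0}) | (have := @Kind.eq_3.{0,0,0,0,0}) | (have := @Kind.eq_3.{0,0,0,0}) | (have := @Kind.eq_3.{0,0,0}) | (have := @Kind.eq_3.{0,0}) | (have := @Kind.eq_3.{0}) | (have := @Kind.eq_3) | skip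
  first | (have := @Kind.eq_unfold.{0,0,0,0,0,0}) | (have := @Kind.eq_unfold.{0,0,0,0,0}) | (have := @Kind.eq_unfold.{0,0,0,0}) | (have := @Kind.eq_unfold.{0,0,0}) | (have := @Kind.eq_unfold.{0,0}) | (have := @Kind.eq_unfold.{0}) | (have := @Kind.eq_unfold) | skip
  first | (have := @Kind.congr_simp.{0,0,0,0,0,0}) | (have := @Kind.congr_simp.{0,0,0,0,0}) | (have := @Kind.congr_simp.{0,0,0,0}) | (have := @Kind.congr_simp.{0,0,0}) | (have := @Kind.congr_simp.{0,0}) | (have := @Kind.congr_simp.{0}) | (have := @Kind.congr_simp) | skip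
  first | (have := @kind.eq_def.{0,0,0,0,0,0}) | (have := @kind.eq_def.{0,0,0,0,0}) | (have := @kind.eq_def.{0,0,0,0}) | (have := @kind.eq_def.{0,0,0}) | (have := @kind.eq_def.{0,0}) | (have := @kind.eq_def.{0}) | (have := @kind.eq_def) | skip
  first | (have := @kind.eq_1.{0,0,0,0,0,0}) | (have := @kind.eq_1.{0,0,0,0,0}) | (have := @kind.eq_1.{0,0,0,0}) | (have := @kind.eq_1.{0,0,0}) | (have := @kind.eq_1.{0,0}) | (have := @kind.eq_1.{0}) | (have := @kind.eq_1) | skip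
  first | (have := @kind.eq_2.{0,0,0,0,0,0}) | (have := @kind.eq_2.{0,0,0,0,0}) | (have := @kind.eq_2.{0,0,0,0}) | (have := @kind.eq_2.{0,0,0}) | (have := @kind.eq_2.{0,0}) | (have := @kind.eq_2.{0}) | (have := @kind.eq_2) | skip
  first | (have := @kind.eq_3.{0,0,0,0,0,0}) | (have := @kind.eq_3.{0,0,0,0,0}) | (have := @kind.eq_3.{0,0,0,0}) | (have := @kind.eq_3.{0,0,0}) | (have := @kind.eq_3.{0,0}) | (have := @kind.eq_3.{0}) | (have := @kind.eq_3) | skip
  first | (have := @kind.eq_unfold.{0,0,0,0,0,0}) | (have := @kind.eq_unfold.{0,0,0,0,0}) | (have := @kind.eq_unfold.{0,0,0,0}) | (have := @kind.eq_unfold.{0,0,0}) | (have := @kind.eq_unfold.{0,0}) | (have := @kind.eq_unfold.{0}) | (have := @kind.eq_unfold) | skip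
  first | (have := @kind.congr_simp.{0,0,0,0,0,0}) | (have := @kind.congr_simp.{0,0,0,0,0}) | (have := @kind.congr_simp.{0,0,0,0}) | (have := @kind.congr_simp.{0,0,0}) | (have := @kind.congr_simp.{0,0}) | (have := @kind.congr_simp.{0}) | (have := @kind.congr_simp) | skip
  first | (have := @x5.eq_def.{0,0,0,0,0,0}) | (have := @x5.eq_def.{0,0,0,0,0}) | (have := @x5.eq_def.{0,0,0,0}) | (have := @x5.eq_def.{0,0,0}) | (have := @x5.eq_def.{0,0}) | (have := @x5.eq_def.{0}) | (have := @x5.eq_def) | skip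
  first | (have := @x5.eq_1.{0,0,0,0,0,0}) | (have := @x5.eq_1.{0,0,0,0,0}) | (have := @x5.eq_1.{0,0,0,0}) | (have := @x5.eq_1.{0,0,0}) | (have := @x5.eq_1.{0,0}) | (have := @x5.eq_1.{0}) | (have := @x5.eq_1) | skip
  first | (have := @x5.eq_2.{0,0,0,0,0,0}) | (have := @x5.eq_2.{0,0,0,0,0}) | (have := @x5.eq_2.{0,0,0,0}) | (have := @x5.eq_2.{0,0,0}) | (have := @x5.eq_2.{0,0}) | (have := @x5.eq_2.{0}) | (have := @x5.eq_2) | skip
  first | (have := @x5.eq_3.{0,0,0,0,0,0}) | (have := @x5.eq_3.{0,0,0,0,0}) | (have := @x5.eq_3.{0,0,0,0}) | (have := @x5.eq_3.{0,0,0}) | (have := @x5.eq_3.{0,0}) | (have := @x5.eq_3.{0}) | (have := @x5.eq_3) | skip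
  first | (have := @x5.eq_unfold.{0,0,0,0,0,0}) | (have := @x5.eq_unfold.{0,0,0,0,0}) | (have := @x5.eq_unfold.{0,0,0,0}) | (have := @x5.eq_unfold.{0,0,0}) | (have := @x5.eq_unfold.{0,0}) | (have := @x5.eq_unfold.{0}) | (have := @x5.eq_unfold) | skip
  first | (have := @x5.congr_simp.{0,0,0,0,0,0}) | (have := @x5.congr_simp.{0,0,0,0,0}) | (have := @x5.congr_simp.{0,0,0,0}) | (have := @x5.congr_simp.{0,0,0}) | (have := @x5.congr_simp.{0,0}) | (have := @x5.congr_simp.{0}) | (have := @x5.congr_simp) | skip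
  trivial

end Cfsg.Agent.H42
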