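import Cfsg.Agent.H42.Idx3

/-! Subgroups of index 759 and 276 in the Mathieu group of degree 24. -/

set_option autoImplicit false
set_option maxRecDepth 1000000
set_option Elab.async false

namespace Cfsg.Agent.H42

open Cfsg MulAction
open scoped Pointwise

theorem card_inf_G23 {H : Subgroup M24} (h : ∀ a ∉ toSet 0, ∀ b ∉ toSet 0, ∃ g ∈ H, g • a = b) :
    Nat.card H = 24 * Nat.card ↥(H ⊓ G23) := by
  have := card_of_transitive (le_top.trans top_le_stab) h (p := pt 23) (pt23_notMem (by decide))
  rwa [toSet_zero] at this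

theorem M24_index_759 {H : Subgroup M24} (hc : Nat.card H = 322560) :
    ∃ o ∈ octads, H = stabilizer M24 o := by
  obtain ⟨s, h1, h2⟩ | h := orb_cases (le_top (a := H)) inM_gens24 gen_gens24.symm card_G24 hc
    (n := 759) (by norm_num) (p := 7) inM_x7 trivial (by decide +kernel) (by norm_num) (by norm_num)
    (i := 23) (by norm_num) (F := 0) (by norm_num) top_le_stab (by decide +kernel) (r := isOct)
    (tr := true) (bs := [0, 1, 2, 4, 5]) (by decide +kernel) (· ∈ octads)
    (fun w _ h => toSet_mem_octads h) (fun g _ s h => (msmul_mem_octads_iff g).mpr h)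
  · exact ⟨s, h1, Subgroup.eq_of_le_of_card_ge h2 (by rw [card_stab_octad h1, hc])⟩
  · have := card_inf_G23 h.2
    exact (M23_index_759 (H := H ⊓ G23) inf_le_right (by omega)).elim

theorem M24_index_276 {H : Subgroup M24} (hc : Nat.card H = 887040) :
    ∃ s : Finset GolayPt, s.card = 2 ∧ H = stabilizer M24 s := by
  obtain ⟨s, h1, h2⟩ | h := orb_cases (le_top (a := H)) inM_gens24 gen_gens24.symm card_G24 hc
    (n := 276) (by norm_num) (p := 7) inM_x7 trivial (by decide +kernel) (by norm_num) (by norm_num)
    (i := 23) (by norm_num) (F := 0) (by norm_num) top_le_stab (by decide +kernel)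
    (r := fun w => Nat.beq (pc w) 2) (tr := true) (bs := [0, 1, 2, 4, 5]) (by decide +kernel)
    (·.card = 2) (fun w hw h => (card_toSet hw).trans (beq_iff.mp h))
    (fun g _ s h => by rwa [Finset.card_smul_finset])
  · exact ⟨s, h1, Subgroup.eq_of_le_of_card_ge h2 (by rw [card_stab_duad h1, hc])⟩
  · have := card_inf_G23 h.2
    exact (M23_index_276 (H := H ⊓ G23) inf_le_right (by omega)).elim

end Cfsg.Agent.H42
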