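import Cfsg.Agent.H42.Idx4

/-! Subgroups of index 1771 in the Mathieu group of degree 24 are transitive. -/

set_option autoImplicit false
set_option maxRecDepth 1000000
set_option Elab.async false

namespace Cfsg.Agent.H42

open Cfsg MulAction
open scoped Pointwise

theorem unions_split {gens bs : List ℕ} {x n b a o : ℕ} {P : List (ℕ → ℕ) → ℕ → Bool}
    (hb : b ≤ 23)
    (h1 : withTabs fimg gens (fun t => unionsChk x n (P t) bs (Nat.lor a (cycM x n b)) o) = true)
    (h2 : withTabs fimg gens (fun t => unionsChk x n (P t) bs a (Nat.lor o (cycM x n b))) = true) :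
    withTabs fimg gens (fun t => unionsChk x n (P t) (b :: bs) a o) = true := by
  rw [withTabs_eq] at h1 h2 ⊢
  generalize P _ = p at h1 h2 ⊢
  have e : unionsChk x n p (b :: bs) a o = Bool.and (Nat.ble b 23) (force (cycM x n b) fun c =>
      Bool.and (force (Nat.lor a c) fun a' => unionsChk x n p bs a' o)
        (force (Nat.lor o c) fun o' => unionsChk x n p bs a o')) := rfl
  rw [e]
  simp only [force_eq, Bool.and_eq_true, ble_iff]
  exact ⟨hb, h1, h2⟩

set_option maxHeartbeats 4000000 in
theorem chk_1771 : withTabs fimg gens24 (fun a => unionsChk x5 5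
    (prune a x5 244823040 138240 1771 0 (fun _ => false) true) [0, 2, 4, 8, 9, 10, 14]
    (Nat.pow 2 23) 0) = true := by
  refine unions_split (by norm_num) ?_ ?_ <;> refine unions_split (by norm_num) ?_ ?_ <;>
    refine unions_split (by norm_num) ?_ ?_ <;> refine unions_split (by norm_num) ?_ ?_ <;>
    decide +kernel

theorem trans_1771 {H : Subgroup M24} (hc : Nat.card H = 138240) : Nat.card ↥(H ⊓ G23) = 5760 := by
  obtain ⟨s, h1, -⟩ | h := orb_cases (le_top (a := H)) inM_gens24 gen_gens24.symm card_G24 hc
    (n := 1771) (by norm_num) (p := 5) inM_x5 trivial (by decide +kernel) (by norm_num) (by norm_num)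
    (i := 23) (by norm_num) (F := 0) (by norm_num) top_le_stab (by decide +kernel)
    chk_1771 (fun _ => False) (fun w _ h => absurd h (by decide)) (fun _ _ _ h => h)
  · exact h1.elim
  have h1 := card_inf_G23 h.2
  omega

end Cfsg.Agent.H42
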