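import Cfsg.Agent.H42.Idx5

/-! Subgroups of index 1771 in the Mathieu group of degree 24. -/

set_option autoImplicit false
set_option maxRecDepth 1000000
set_option Elab.async false

namespace Cfsg.Agent.H42

open Cfsg MulAction
open scoped Pointwise

theorem fastSet2 (g1 g2 : List ℕ) (k : List (ℕ → ℕ) → List (ℕ → ℕ) → Bool) :
    k (actsOf img g1) (actsOf img g2) =
      withTabs fimg g1 fun a => withTabs fimg g2 fun b => k a b := by
  rw [← fastSet, ← fastSet]

theorem fastFam2 (m : ℕ) (g1 g2 : List ℕ) (k : List (ℕ → ℕ) → List (ℕ → ℕ) → Bool) :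
    k (actsOf (famAct m) g1) (actsOf (famAct m) g2) =
      withTabs (ffamAct m) g1 fun a => withTabs (ffamAct m) g2 fun b => k a b := by
  rw [← fastFam, ← fastFam]

theorem le_set_of_index {K H : Subgroup M24} {gens : List ℕ} (hg : ∀ g ∈ gens, inM g = true)
    (hK : ∀ g ∈ gens, toM g ∈ K) (hKH : K ≤ H) (hc : Nat.card H = 24 * Nat.card K)
    (h23 : ¬ 23 ∣ Nat.card K) {x0 fuel : ℕ} (h0 : x0 < 2 ^ 24) (hx : K ≤ stabilizer M24 (toSet x0))
    (h : (withTabs fimg gens24 fun a => withTabs fimg gens fun b => orbAll a x0 fuel fun y =>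
      Bool.or (Nat.beq y x0) (Nat.ble 12 (orbLB b y 12))) = true) : H ≤ stabilizer M24 (toSet x0) :=
  le_stabilizer_of_index K H hKH hc h23 _ hx (encSet.small_orbits (fun _ h => h) gen_gens24 hg K H hK
    (x0 := x0) h0 ((fastSet2 gens24 gens fun a b => orbAll a x0 fuel fun y =>
      Bool.or (Nat.beq y x0) (Nat.ble 12 (orbLB b y 12))).trans h))

theorem GK1_le_GS : GK1 ≤ GS := by
  rw [GK1_eq]
  exact gen_le GS (allL_fix_fam inM_gensK1 (by decide +kernel))

theorem sext_chk : orbAll (actsOf (encFam 6).act gens24) sext0 1800 (fun y => Bool.or (Nat.beq y sext0)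
    (Nat.ble 12 (orbLB (actsOf (encFam 6).act gensK1) y 12))) = true :=
  (fastFam2 6 gens24 gensK1 fun a b => orbAll a sext0 1800 fun y =>
    Bool.or (Nat.beq y sext0) (Nat.ble 12 (orbLB b y 12))).trans (by decide +kernel)

theorem le_GS {H : Subgroup M24} (h : GK1 ≤ H) (hc : Nat.card H = 138240) : H ≤ GS :=
  le_stabilizer_of_index GK1 H h (by rw [hc, card_GK1]) (by rw [card_GK1]; norm_num) (famDec 6 sext0)
    (fun _ hk => GK1_le_GS hk) ((encFam 6).small_orbits (fun _ h => h) gen_gens24 inM_gensK1 GK1 H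
      gensK1_mem famOk_sext0 sext_chk)

theorem sext_1771 {H : Subgroup M24} (hc : Nat.card H = 138240) {a : M24} (h : GK1 ≤ cj a⁻¹ H) :
    ∃ S ∈ sextets, H = stabilizer M24 S := by
  have h7 := le_GS h (by rw [card_cj, hc])
  have h8 := msmul_mem_sextets a⁻¹⁻¹ sext0_mem
  have h9 := le_stabilizer_of_cj h7
  exact ⟨_, h8, Subgroup.eq_of_le_of_card_ge h9 (by rw [card_stab_sextet h8, hc])⟩

theorem oct_1771 {H : Subgroup M24} (hc : Nat.card H = 138240) (h : Q22_1 ≤ H) : False := by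
  have h8 := Subgroup.card_dvd_of_le (le_set_of_index inM_gensQ22_1 gensQ22_1_mem h
    (by rw [hc, card_Q22_1]) (by rw [card_Q22_1]; norm_num) oct0_lt inf_le_right
    (fuel := 800) (by decide +kernel))
  rw [hc, card_stab_octad oct0_mem] at h8
  exact absurd h8 (by norm_num)

theorem M24_index_1771 {H : Subgroup M24} (hc : Nat.card H = 138240) :
    ∃ S ∈ sextets, H = stabilizer M24 S := by
  have h2 := trans_1771 hc
  rcases M23_index_1771 inf_le_right h2 with ⟨s, h3, h4, h5⟩ | ⟨o, ho, h3, h4⟩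
  · obtain ⟨a, e, rfl⟩ := exists_smul_pt_triad h4 h3
    refine sext_1771 hc (a := a) (le_cj_inv_of_conj (conj_mem_stab2 a _ _) ?_)
    rw [← Subgroup.eq_of_le_of_card_ge (le_inf (by rw [e]; exact inf_le_right) h5)
      (by rw [card_eq_of_conj a GK1 _ (conj_mem_stab2 a _ _), card_GK1, h2])]
    exact inf_le_left
  · obtain ⟨q, hq, h5, h6⟩ := heptad_index_7 ho h3 h4 h2
    obtain ⟨a, rfl, e, rfl⟩ := exists_smul_oct0_two ho h3 hq h5
    refine (oct_1771 (H := cj a⁻¹ H) (by rw [card_cj, hc])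
      (le_cj_inv_of_conj (conj_mem_stab3 a _ _ _) ?_)).elim
    rw [← Subgroup.eq_of_le_of_card_ge (le_inf (le_inf (by rw [e]; exact inf_le_right) h6)
      (h4.trans inf_le_right))
      (by rw [card_eq_of_conj a Q22_1 _ (conj_mem_stab3 a _ _ _), card_Q22_1, h2])]
    exact inf_le_left

end Cfsg.Agent.H42
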